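import Cfsg.Agent.H325.Same.ExcF4

/-!
# S2499, the row `G₂(q)`, `q` odd: simple groups of order dividing `|G₂(q)|`, class 6 (helper395)

`six` : the version of helper325's `charp_g2` with the class 6 only, `p` odd.
-/

set_option autoImplicit false

namespace Cfsg.Agent.H395.GCov

open Cfsg.Agent.OrdDiv Cfsg.Agent.H436 Cfsg.Agent.H915.GN Cfsg.Agent.H264.GN Cfsg.Agent.H264.FKS Cfsg.Agent.H325.Same

variable {p f c : ℕ} {g : Grp}

/-- `3D4(q)` in `G₂(q²)` -/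
theorem td4_false {f₁ : ℕ} (hp : p.Prime) (hf₁ : 1 ≤ f₁)
    (hc : den (.td4 (p ^ f₁)) * c = num (.td4 (p ^ f₁))) (hdvd : c ∣ num (.g2 (p ^ (f₁ * 2)))) : False := by
  have hq : 2 ≤ p ^ (f₁ * 2) := hp.two_le.trans (Nat.le_self_pow (by omega) _)
  obtain ⟨t, ht3⟩ := exists_prim (q := p ^ (f₁ * 2)) (e := 3) hq (by norm_num) (by omega)
  have b1 : 0 < p ^ (f₁ * 2) - 1 := by omega
  have b2 := sub_pos' (d := 2) hq (by norm_num)
  have b3 := sub_pos' (d := 3) hq (by norm_num)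
  have b6 := sub_pos' (d := 6) hq (by norm_num)
  have hd : c ∣ (p ^ (f₁ * 2)) ^ 6 * (((p ^ (f₁ * 2)) ^ 2 - 1) * ((p ^ (f₁ * 2)) ^ 6 - 1)) := hdvd
  have hc0 : 0 < c := pos_of_dvd (by positivity) hd
  have h6 : 1 * c = (p ^ f₁) ^ 12 * (((p ^ f₁) ^ 2 - 1) * ((p ^ f₁) ^ 6 - 1) * ((p ^ f₁) ^ 8 + (p ^ f₁) ^ 4 + 1)) := hc
  have e1 : (p ^ f₁) ^ 2 = p ^ (f₁ * 2) := by rw [pow_mul]
  have e2 : (p ^ f₁) ^ 6 = (p ^ (f₁ * 2)) ^ 3 := by rw [← pow_mul, ← pow_mul]; congr 1; ring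
  have e3 : (p ^ f₁) ^ 8 = (p ^ (f₁ * 2)) ^ 4 := by rw [← pow_mul, ← pow_mul]; congr 1; ring
  have e4 : (p ^ f₁) ^ 4 = (p ^ (f₁ * 2)) ^ 2 := by rw [← pow_mul, ← pow_mul]; congr 1; ring
  rw [e1, e2, e3, e4] at h6
  generalize p ^ (f₁ * 2) = Q at *
  have h7 : Q ^ 2 - 1 = (Q + 1) * (Q - 1) := by
    have := Nat.sq_sub_sq Q 1
    rwa [one_pow] at this
  have h8 : Q ^ 6 - 1 = (Q ^ 3 + 1) * (Q ^ 3 - 1) := by
    have := Nat.sq_sub_sq (Q ^ 3) 1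
    rwa [one_pow, ← pow_mul] at this
  have h9 : Q ^ 6 - 1 = (Q ^ 4 + Q ^ 2 + 1) * (Q ^ 2 - 1) := by
    obtain ⟨a, ha⟩ : ∃ a, Q ^ 2 = a + 1 := ⟨Q ^ 2 - 1, by omega⟩
    have h10 : Q ^ 6 = (a + 1) ^ 3 := by rw [← ha]; ring
    have h11 : Q ^ 4 = (a + 1) ^ 2 := by rw [← ha]; ring
    rw [h10, h11, ha, Nat.add_sub_cancel]
    have : (a + 1) ^ 3 = ((a + 1) ^ 2 + (a + 1) + 1) * a + 1 := by ring
    omega
  refine cancel_prime ht3.prime (Z := (Q - 1) * (Q ^ 3 - 1)) (by positivity) hc0 (D := 1)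
    (A := (p ^ f₁) ^ 12) (x := Q ^ 4 + Q ^ 2 + 1) (B := Q ^ 6) (y := (Q + 1) * (Q ^ 3 + 1)) ?_ ?_ ?_
    (fun h => ?_) (ht3.not_dvd_pow _) (fun h => ?_)
  · rw [h6]; ring
  · refine hd.trans (dvd_of_eq ?_)
    rw [h7, h8]; ring
  · have h12 : t ∣ Q ^ 6 - 1 := ht3.dvd (by norm_num)
    rw [h9] at h12
    exact (ht3.prime.dvd_mul.1 h12).resolve_right (ht3.not_dvd_sub (by norm_num))
  · exact ht3.prime.one_lt.ne' (Nat.dvd_one.1 h)
  · rcases ht3.prime.dvd_mul.1 h with h | h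
    · exact ht3.not_dvd_qadd le_rfl h
    · exact not_dvd_add_odd ht3 rfl (by norm_num) 3 h

/-- a power of `2` is not a power of the odd prime `p` -/
theorem ne_two_pow {f₁ m : ℕ} (hp : p.Prime) (hp2 : p ≠ 2) (hf₁ : 1 ≤ f₁) : p ^ f₁ ≠ 2 ^ (2 * m + 1) := by
  intro hqm
  have h4 : p ∣ 2 ^ (2 * m + 1) := by
    rw [← hqm]
    exact dvd_pow_self p (by omega)
  exact hp2 ((Nat.prime_dvd_prime_iff_eq hp Nat.prime_two).1 (hp.dvd_of_dvd_pow h4))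

/-- the names with top exponent `6 f` -/
def Top6 (p f : ℕ) (g : Grp) : Prop :=
  g = .g2 (p ^ f) ∨ g = .psl 2 (p ^ (3 * f)) ∨ g = .psu 3 (p ^ f) ∨ g = .ree (p ^ f)

/-- **`G_2(q)`, `q` odd, top exponent `6 f`.** -/
theorem top6 {f₁ : ℕ} (hp : p.Prime) (hp2 : p ≠ 2) (hf : 1 ≤ f) (hg : Cond g) (hch : HasChar p g)
    (hc : den g * c = num g) (hdvd : c ∣ num (.g2 (p ^ f))) (hf₁ : 1 ≤ f₁) (hfl : fld g = p ^ f₁)
    (hK : KD p f₁ c (Xg g) (Yg g) (Mg g) (ag g)) (hfM : f₁ * Mg g = f * 6) : Top6 p f g := by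
  have hT := td_g2 hp hf hdvd
  have h2 : 2 * ag g ≤ 2 * Mg g := by
    have h2 := hT.pp hK.pp
    have h4 : f * (ag g * 6) ≤ f * (6 * Mg g) := by
      calc f * (ag g * 6) = (f * 6) * ag g := by ring
        _ = (f₁ * Mg g) * ag g := by rw [hfM]
        _ = (f₁ * ag g) * Mg g := by ring
        _ ≤ (f * 6) * Mg g := Nat.mul_le_mul_right _ h2
        _ = f * (6 * Mg g) := by ring
    have := Nat.le_of_mul_le_mul_left h4 (by omega)
    omega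
  have hO := elimT_g2 hg hch h2
  have hq : 2 ≤ p ^ f := hp.two_le.trans (Nat.le_self_pow (by omega) _)
  have b1 : 0 < p ^ f - 1 := by omega
  have b2 := sub_pos' (d := 2) hq (by norm_num)
  have b3 := sub_pos' (d := 3) hq (by norm_num)
  have b6 := sub_pos' (d := 6) hq (by norm_num)
  have hd : c ∣ (p ^ f) ^ 6 * (((p ^ f) ^ 2 - 1) * ((p ^ f) ^ 6 - 1)) := hdvd
  have hc0 : 0 < c := pos_of_dvd (by positivity) hd
  obtain ⟨t, ht3⟩ := exists_prim (q := p ^ f) (e := 3) hq (by norm_num) (by omega)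
  obtain ⟨s, hs4⟩ := exists_prim (q := p ^ f) (e := 4) hq (by norm_num) (by omega)
  have hn : ¬ s ∣ c := fun h => not_dvd_g2 hs4 (Or.inl rfl) (h.trans hdvd)
  cases g
  case psl m q =>
    have hO' : m = 2 ∨ m = 3 := hO
    obtain rfl : q = p ^ f₁ := hfl
    rcases hO' with rfl | rfl
    · right; left
      have h5 : f₁ * 2 = f * 6 := hfM
      obtain rfl : f₁ = 3 * f := by omega
      rfl
    · exfalso
      have h5 : f₁ * 3 = f * 6 := hfM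
      obtain rfl : f₁ = f * 2 := by omega
      exact hn (mq_dvd' hs4 (by norm_num) (psl_mq le_rfl (hp.two_le.trans (Nat.le_self_pow (by omega) _)) hc))
  case psp m q =>
    exfalso
    obtain rfl : m = 2 := hO
    obtain rfl : q = p ^ f₁ := hfl
    have h5 : f₁ * (2 * 2) = f * 6 := hfM
    have h6 : Nat.gcd 2 (p ^ f₁ - 1) * c = (p ^ f₁) ^ (2 ^ 2) * prB (p ^ f₁) 2 := hc
    have e1 : (p ^ f₁) ^ 2 = (p ^ f) ^ 3 := sq_eq (k := 1) (by omega)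
    have e2 : (p ^ f₁) ^ 4 = (p ^ f) ^ 6 := sq_eq (k := 2) (by omega)
    have h7 : prB (p ^ f₁) 2 = ((p ^ f₁) ^ 2 - 1) * ((p ^ f₁) ^ 4 - 1) := by
      rw [prB_eq, Finset.prod_range_succ, Finset.prod_range_succ, Finset.prod_range_zero]
      norm_num only [one_mul]
    rw [h7, e1, e2] at h6
    exact cancel_prime ht3.prime b6 hc0 h6 hd (ht3.dvd dvd_rfl) (fun h => ht3.not_dvd_two le_rfl
      (h.trans (Nat.gcd_dvd_left _ _))) (ht3.not_dvd_pow _) (ht3.not_dvd_sub (by norm_num))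
  case psu m q =>
    have hO' : m = 3 ∨ m = 4 ∨ m = 5 := hO
    obtain rfl : q = p ^ f₁ := hfl
    rcases hO' with rfl | rfl | rfl
    · have h5 : f₁ * 6 = f * 6 := hfM
      obtain rfl : f₁ = f := by omega
      exact Or.inr (Or.inr (Or.inl rfl))
    · exfalso
      have h5 : f₁ * 6 = f * 6 := hfM
      obtain rfl : f₁ = f := by omega
      obtain ⟨r, hr⟩ := exists_prim (q := p) (e := f₁ * 4) hp.two_le (by omega) (by omega)
      have h6 : r ∣ c := hK.has (show 3 ≤ 4 ∧ ((4 ≤ 4 ∧ 4 % 2 = 0) ∨ ∃ j, 4 = 2 * j ∧ j ≤ 4 ∧ j % 2 = 1) from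
        ⟨by norm_num, Or.inl ⟨le_rfl, rfl⟩⟩) (by omega) hr
      exact not_dvd_g2 (prim_pow hf hr) (Or.inl rfl) (h6.trans hdvd)
    · exfalso
      have h5 : f₁ * 10 = f * 6 := hfM
      obtain ⟨k, rfl⟩ : ∃ k, f = 5 * k := ⟨f / 5, by omega⟩
      obtain rfl : f₁ = 3 * k := by omega
      obtain ⟨r, hr⟩ := exists_prim (q := p) (e := 3 * k * 4) hp.two_le (by omega) (by omega)
      have h6 : r ∣ c := hK.has (show 3 ≤ 4 ∧ ((4 ≤ 5 ∧ 4 % 2 = 0) ∨ ∃ j, 4 = 2 * j ∧ j ≤ 5 ∧ j % 2 = 1) from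
        ⟨by norm_num, Or.inl ⟨by norm_num, rfl⟩⟩) (by omega) hr
      have h7 := Cfsg.Agent.H425.Chr.prim_quot (f := 5 * k) (by omega) hr
      have h8 : 3 * k * 4 / Nat.gcd (3 * k * 4) (5 * k) = 12 := by
        rw [show 3 * k * 4 = 12 * k by ring, Nat.gcd_mul_right, Nat.mul_div_mul_right _ _ (by omega)]
        norm_num
      rw [h8] at h7
      exact not_dvd_g2 h7 (Or.inr rfl) (h6.trans hdvd)
  case g2 q =>
    left
    obtain rfl : q = p ^ f₁ := hfl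
    rw [same_fld (M := 6) (by norm_num) hfM]
  case td4 q =>
    exfalso
    obtain rfl : q = p ^ f₁ := hfl
    have h5 : f₁ * 12 = f * 6 := hfM
    obtain rfl : f = f₁ * 2 := by omega
    exact td4_false hp hf₁ hc hdvd
  case tf4 q =>
    exfalso
    obtain rfl : q = p ^ f₁ := hfl
    obtain ⟨m, hm, hqm⟩ : ∃ m, 1 ≤ m ∧ p ^ f₁ = 2 ^ (2 * m + 1) := hg
    exact ne_two_pow hp hp2 hf₁ hqm
  case sz q =>
    exfalso
    obtain rfl : q = p ^ f₁ := hfl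
    obtain ⟨m, hm, hqm⟩ : ∃ m, 1 ≤ m ∧ p ^ f₁ = 2 ^ (2 * m + 1) := hg
    exact ne_two_pow hp hp2 hf₁ hqm
  case ree q =>
    obtain rfl : q = p ^ f₁ := hfl
    have h5 : f₁ * 6 = f * 6 := hfM
    obtain rfl : f₁ = f := by omega
    exact Or.inr (Or.inr (Or.inr rfl))
  all_goals exact absurd hO not_false

/-- the top exponent of a divisor of `|G₂(q)|`, given the class `e = 3` or `e = 6` -/
theorem top_le {f₁ e : ℕ} (hp : p.Prime) (hp2 : p ≠ 2) (hf : 1 ≤ f) (he : e = 3 ∨ e = 6)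
    (hT : TD p f c (Xg (.g2 (p ^ f))) 6 6) (hf₁ : 1 ≤ f₁) (hK : KD p f₁ c (Xg g) (Yg g) (Mg g) (ag g))
    (hY : Yg g (Mg g)) (hs : ∀ s, Prim (p ^ f) e s → s ∣ c) :
    f * e ≤ f₁ * Mg g ∧ f₁ * Mg g ∣ f * 6 := by
  have h3e : 3 ≤ f * e := by rcases he with rfl | rfl <;> omega
  obtain ⟨s, hs'⟩ := exists_prim (q := p) (e := f * e) hp.two_le h3e (by omega)
  obtain ⟨x, hx, hx2⟩ := hK.exp hs' (hs s (prim_pow hf hs'))
  have hx3 := hK.le hx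
  have h1 : f * e ≤ f₁ * Mg g :=
    (Nat.le_of_dvd (Nat.mul_pos (by omega) (by omega)) hx2).trans (Nat.mul_le_mul_left _ hx3.2)
  refine ⟨h1, ?_⟩
  obtain ⟨t, ht⟩ := exists_prim (q := p) (e := f₁ * Mg g) hp.two_le (by omega) (by omega)
  obtain ⟨i, hi, hi2⟩ := hT.exp ht (hK.has hY (by omega) ht)
  have hi' : i ∈ [2, 6] := hi
  simp only [List.mem_cons, List.not_mem_nil, or_false] at hi'
  rcases hi' with rfl | rfl
  · exact hi2.trans ⟨3, by ring⟩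
  · exact hi2

/-- **Class 6.** -/
theorem six (hp : p.Prime) (hp2 : p ≠ 2) (hf : 1 ≤ f) (hg : Cond g) (hch : HasChar p g)
    (hc : den g * c = num g) (hdvd : c ∣ num (.g2 (p ^ f))) (hs6 : ∀ s, Prim (p ^ f) 6 s → s ∣ c) :
    Top6 p f g := by
  obtain ⟨f₁, hf₁, hfl, hK, hY⟩ := kd_all hp hg hch hc
  have hT := td_g2 hp hf hdvd
  obtain ⟨h1, h2⟩ := top_le hp hp2 hf (Or.inr rfl) hT hf₁ hK hY hs6
  have h3 := Nat.le_of_dvd (by omega) h2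
  exact top6 hp hp2 hf hg hch hc hdvd hf₁ hfl hK (by omega)

end Cfsg.Agent.H395.GCov
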