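import Cfsg.Agent.H395.GCov.Six
import Cfsg.Agent.H325.Same.ExcChar

/-!
# S2499, the row `G₂(q)`, `q` odd: simple groups of order dividing `|G₂(q)|`, class 3 (helper395)
-/

set_option autoImplicit false

namespace Cfsg.Agent.H395.GCov

open Cfsg.Agent.OrdDiv Cfsg.Agent.H436 Cfsg.Agent.H915.GN Cfsg.Agent.H264.GN Cfsg.Agent.H264.FKS Cfsg.Agent.H325.Same

variable {p f c : ℕ} {g : Grp}

/-! ### 2-adic cancellation -/

theorem eight_dvd {Q k : ℕ} (hQ : Odd Q) : 8 ∣ Q ^ (2 * k) - 1 := by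
  have h1 : 8 ∣ Q ^ 2 - 1 := Nat.eight_dvd_sq_sub_one_of_odd hQ
  have h2 : Q ^ 2 - 1 ∣ (Q ^ 2) ^ k - 1 ^ k := Nat.sub_dvd_pow_sub_pow _ _ k
  rw [one_pow, ← pow_mul] at h2
  exact h1.trans h2

theorem two_mod {Q k : ℕ} (hQ : Odd Q) : (Q ^ (2 * k) + 1) % 4 = 2 := by
  obtain ⟨a, ha⟩ := eight_dvd (k := k) hQ
  have : 1 ≤ Q ^ (2 * k) := Nat.one_le_pow _ _ hQ.pos
  omega

/-- `x ∣ D B y` with `8 ∣ x`, `D ∣ 2`, `B` odd, `y ≡ 2` modulo `4` is impossible -/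
theorem two_false {D A B Z c x y : ℕ} (hZ : 0 < Z) (hc : 0 < c) (h1 : D * c = A * (x * Z))
    (h2 : c ∣ B * (y * Z)) (hx : 8 ∣ x) (hD : D ∣ 2) (hB : Odd B) (hy : y % 4 = 2) : False := by
  have h3 := hx.trans (cancel_dvd hZ hc h1 h2)
  have h4 : 8 ∣ B * (2 * y) := by
    refine h3.trans ?_
    rw [mul_comm D B, mul_assoc]
    exact Nat.mul_dvd_mul_left _ (Nat.mul_dvd_mul_right hD _)
  have h5 : Nat.Coprime 8 B := by
    rw [show 8 = 2 ^ 3 by norm_num]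
    exact Nat.Coprime.pow_left 3 hB.coprime_two_left
  have h6 := h5.dvd_of_dvd_mul_left h4
  omega

/-- the same with `64 ∣ x`, `D ∣ 4` -/
theorem two_false' {D A B Z c x y : ℕ} (hZ : 0 < Z) (hc : 0 < c) (h1 : D * c = A * (x * Z))
    (h2 : c ∣ B * (y * Z)) (hx : 16 ∣ x) (hD : D ∣ 4) (hB : Odd B) (hy : y % 4 = 2) : False := by
  have h3 := hx.trans (cancel_dvd hZ hc h1 h2)
  have h4 : 16 ∣ B * (4 * y) := by
    refine h3.trans ?_
    rw [mul_comm D B, mul_assoc]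
    exact Nat.mul_dvd_mul_left _ (Nat.mul_dvd_mul_right hD _)
  have h5 : Nat.Coprime 16 B := by
    rw [show 16 = 2 ^ 4 by norm_num]
    exact Nat.Coprime.pow_left 4 hB.coprime_two_left
  have h6 := h5.dvd_of_dvd_mul_left h4
  omega

/-- the order of `G₂(Q²)` -/
theorem g2_sq {Q c : ℕ} (h : c ∣ num (.g2 (Q ^ 2))) :
    c ∣ Q ^ 12 * ((Q ^ 6 + 1) * ((Q ^ 4 - 1) * (Q ^ 6 - 1))) := by
  have h1 : c ∣ (Q ^ 2) ^ 6 * (((Q ^ 2) ^ 2 - 1) * ((Q ^ 2) ^ 6 - 1)) := h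
  refine h1.trans (dvd_of_eq ?_)
  have h7 : (Q ^ 2) ^ 6 - 1 = (Q ^ 6 + 1) * (Q ^ 6 - 1) := by
    have := Nat.sq_sub_sq (Q ^ 6) 1
    rw [one_pow, ← pow_mul] at this
    rw [← pow_mul]
    exact this
  rw [h7, ← pow_mul, ← pow_mul]
  ring

theorem prB_three (Q : ℕ) : prB Q 3 = (Q ^ 2 - 1) * ((Q ^ 4 - 1) * (Q ^ 6 - 1)) := by
  rw [prB_eq, Finset.prod_range_succ, Finset.prod_range_succ, Finset.prod_range_succ, Finset.prod_range_zero]
  norm_num only [one_mul]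
  ring

/-- `PSp6(Q)`, `Ω7(Q)` in `G₂(Q²)` -/
theorem sp6_false {Q c D : ℕ} (hQ : Odd Q) (hQ2 : 2 ≤ Q) (hD : D ∣ 2) (hc : D * c = Q ^ (3 ^ 2) * prB Q 3)
    (hdvd : c ∣ num (.g2 (Q ^ 2))) : False := by
  have b4 := sub_pos' (d := 4) hQ2 (by norm_num)
  have b6 := sub_pos' (d := 6) hQ2 (by norm_num)
  have h1 := g2_sq hdvd
  have hc0 : 0 < c := pos_of_dvd (by positivity) h1
  rw [prB_three] at hc
  exact two_false (Z := (Q ^ 4 - 1) * (Q ^ 6 - 1)) (by positivity) hc0 hc h1 (eight_dvd (k := 1) hQ) hD hQ.pow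
    (two_mod (k := 3) hQ)

/-- `PΩ8+(Q)` in `G₂(Q²)` -/
theorem o8_false {Q c D : ℕ} (hQ : Odd Q) (hQ2 : 2 ≤ Q) (hD : D ∣ 4)
    (hc : D * c = Q ^ (4 * (4 - 1)) * ((Q ^ 4 - 1) * prB Q (4 - 1))) (hdvd : c ∣ num (.g2 (Q ^ 2))) : False := by
  have b4 := sub_pos' (d := 4) hQ2 (by norm_num)
  have b6 := sub_pos' (d := 6) hQ2 (by norm_num)
  have h1 := g2_sq hdvd
  have hc0 : 0 < c := pos_of_dvd (by positivity) h1
  have h2 : D * c = Q ^ (4 * (4 - 1)) * (((Q ^ 4 - 1) * (Q ^ 2 - 1)) * ((Q ^ 4 - 1) * (Q ^ 6 - 1))) := by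
    rw [hc]
    show _ * (_ * prB Q 3) = _
    rw [prB_three]
    ring
  refine two_false' (Z := (Q ^ 4 - 1) * (Q ^ 6 - 1)) (by positivity) hc0 h2 h1 ?_ hD hQ.pow (two_mod (k := 3) hQ)
  have h3 := Nat.mul_dvd_mul (eight_dvd (k := 2) hQ) (eight_dvd (k := 1) hQ)
  exact (show 16 ∣ 8 * 8 by norm_num).trans h3

/-- `F4(Q)` in `G₂(Q⁴)` -/
theorem f4_false {Q c : ℕ} (hQ : Odd Q) (hQ2 : 2 ≤ Q) (hc : den (.f4 Q) * c = num (.f4 Q))
    (hdvd : c ∣ num (.g2 (Q ^ 4))) : False := by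
  have b8 := sub_pos' (d := 8) hQ2 (by norm_num)
  have b12 := sub_pos' (d := 12) hQ2 (by norm_num)
  have h1 : 1 * c = Q ^ 24 * ((Q ^ 2 - 1) * (Q ^ 6 - 1) * (Q ^ 8 - 1) * (Q ^ 12 - 1)) := hc
  have h2 : c ∣ (Q ^ 4) ^ 6 * (((Q ^ 4) ^ 2 - 1) * ((Q ^ 4) ^ 6 - 1)) := hdvd
  have h7 : (Q ^ 4) ^ 6 - 1 = (Q ^ 12 + 1) * (Q ^ 12 - 1) := by
    have := Nat.sq_sub_sq (Q ^ 12) 1
    rw [one_pow, ← pow_mul] at this
    rw [← pow_mul]
    exact this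
  rw [h7, ← pow_mul, ← pow_mul] at h2
  have h3 : c ∣ Q ^ 24 * ((Q ^ 12 + 1) * ((Q ^ 8 - 1) * (Q ^ 12 - 1))) := h2.trans (dvd_of_eq (by ring))
  have hc0 : 0 < c := pos_of_dvd (by positivity) h3
  have h4 : 1 * c = Q ^ 24 * (((Q ^ 2 - 1) * (Q ^ 6 - 1)) * ((Q ^ 8 - 1) * (Q ^ 12 - 1))) := by rw [h1]; ring
  exact two_false (Z := (Q ^ 8 - 1) * (Q ^ 12 - 1)) (by positivity) hc0 h4 h3 ((eight_dvd (k := 1) hQ).mul_right _)
    (one_dvd _) hQ.pow (two_mod (k := 6) hQ)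

/-- `PSp4(p^{3k})` in `G₂(p^{4k})` -/
theorem sp4_false {k : ℕ} (hp : p.Prime) (hp2 : p ≠ 2) (hk : 1 ≤ k)
    (hc : den (.psp 2 (p ^ (3 * k))) * c = num (.psp 2 (p ^ (3 * k)))) (hdvd : c ∣ num (.g2 (p ^ (4 * k)))) : False := by
  have hP : 2 ≤ p ^ k := hp.two_le.trans (Nat.le_self_pow (by omega) _)
  have b8 := sub_pos' (d := 8) hP (by norm_num)
  have b12 := sub_pos' (d := 12) hP (by norm_num)
  obtain ⟨t, ht⟩ := exists_prim (q := p ^ k) (e := 6) hP (by norm_num) (by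
    rintro ⟨h, -⟩
    have h1 := dvd_pow_self p (show k ≠ 0 by omega)
    rw [h] at h1
    exact hp2 ((Nat.prime_dvd_prime_iff_eq hp Nat.prime_two).1 h1))
  have h1 : Nat.gcd 2 (p ^ (3 * k) - 1) * c = (p ^ (3 * k)) ^ (2 ^ 2) * prB (p ^ (3 * k)) 2 := hc
  have h2 : c ∣ (p ^ (4 * k)) ^ 6 * (((p ^ (4 * k)) ^ 2 - 1) * ((p ^ (4 * k)) ^ 6 - 1)) := hdvd
  have h7 : prB (p ^ (3 * k)) 2 = ((p ^ (3 * k)) ^ 2 - 1) * ((p ^ (3 * k)) ^ 4 - 1) := by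
    rw [prB_eq, Finset.prod_range_succ, Finset.prod_range_succ, Finset.prod_range_zero]
    norm_num only [one_mul]
  have e1 : (p ^ (3 * k)) ^ 2 = (p ^ k) ^ 6 := by rw [← pow_mul, ← pow_mul]; congr 1; ring
  have e2 : (p ^ (3 * k)) ^ 4 = (p ^ k) ^ 12 := by rw [← pow_mul, ← pow_mul]; congr 1; ring
  have e3 : (p ^ (4 * k)) ^ 2 = (p ^ k) ^ 8 := by rw [← pow_mul, ← pow_mul]; congr 1; ring
  have e4 : (p ^ (4 * k)) ^ 6 = (p ^ k) ^ 24 := by rw [← pow_mul, ← pow_mul]; congr 1; ring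
  rw [h7, e1, e2] at h1
  rw [e3, e4] at h2
  generalize p ^ k = P at *
  have h8 : P ^ 24 - 1 = (P ^ 12 + 1) * (P ^ 12 - 1) := by
    have := Nat.sq_sub_sq (P ^ 12) 1
    rw [one_pow, ← pow_mul] at this
    exact this
  have h3 : c ∣ P ^ 24 * (((P ^ 8 - 1) * (P ^ 12 + 1)) * (P ^ 12 - 1)) := by
    refine h2.trans (dvd_of_eq ?_)
    rw [h8]
    ring
  have hc0 : 0 < c := pos_of_dvd (by positivity) h3
  refine cancel_prime ht.prime (Z := P ^ 12 - 1) (by positivity) hc0 h1 h3 (ht.dvd dvd_rfl) (fun h => ?_)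
    (ht.not_dvd_pow _) (fun h => ?_)
  · exact ht.not_dvd_two (by norm_num) (h.trans (Nat.gcd_dvd_left _ _))
  · rcases ht.prime.dvd_mul.1 h with h | h
    · exact ht.not_dvd_sub (by norm_num) h
    · have h9 : t ∣ P ^ 12 - 1 := ht.dvd (by norm_num)
      have h10 := Nat.dvd_sub h h9
      have h11 : P ^ 12 + 1 - (P ^ 12 - 1) = 2 := by omega
      rw [h11] at h10
      exact ht.not_dvd_two (by norm_num) h10

/-- `3D4(Q)` in `G₂(Q⁴)` -/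
theorem td4_false' {Q : ℕ} (hQ2 : 3 ≤ Q)
    (hc : den (.td4 Q) * c = num (.td4 Q)) (hdvd : c ∣ num (.g2 (Q ^ 4))) : False := by
  have b2 := sub_pos' (d := 2) (q := Q) (by omega) (by norm_num)
  have b4 := sub_pos' (d := 4) (q := Q) (by omega) (by norm_num)
  have b8 := sub_pos' (d := 8) (q := Q) (by omega) (by norm_num)
  obtain ⟨t, ht⟩ := exists_prim (q := Q) (e := 3) (by omega) (by norm_num) (by omega)
  have h1 : 1 * c = Q ^ 12 * ((Q ^ 2 - 1) * (Q ^ 6 - 1) * (Q ^ 8 + Q ^ 4 + 1)) := hc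
  have h2 : c ∣ (Q ^ 4) ^ 6 * (((Q ^ 4) ^ 2 - 1) * ((Q ^ 4) ^ 6 - 1)) := hdvd
  rw [← pow_mul, ← pow_mul] at h2
  norm_num only at h2
  have h8 : Q ^ 24 - 1 = (Q ^ 12 + 1) * (Q ^ 12 - 1) := by
    have := Nat.sq_sub_sq (Q ^ 12) 1
    rw [one_pow, ← pow_mul] at this
    exact this
  have h9 : Q ^ 12 - 1 = (Q ^ 8 + Q ^ 4 + 1) * (Q ^ 4 - 1) := by
    obtain ⟨a, ha⟩ : ∃ a, Q ^ 4 = a + 1 := ⟨Q ^ 4 - 1, by omega⟩
    have h10 : Q ^ 12 = (a + 1) ^ 3 := by rw [← ha]; ring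
    have h11 : Q ^ 8 = (a + 1) ^ 2 := by rw [← ha]; ring
    rw [h10, h11, ha, Nat.add_sub_cancel]
    have : (a + 1) ^ 3 = ((a + 1) ^ 2 + (a + 1) + 1) * a + 1 := by ring
    omega
  have h3 : c ∣ Q ^ 24 * (((Q ^ 8 - 1) * ((Q ^ 4 - 1) * (Q ^ 12 + 1))) * (Q ^ 8 + Q ^ 4 + 1)) := by
    refine h2.trans (dvd_of_eq ?_)
    rw [h8, h9]
    ring
  have hc0 : 0 < c := pos_of_dvd (by positivity) h3
  have hodd := ht.odd (by norm_num)
  refine cancel_prime ht.prime (Z := Q ^ 8 + Q ^ 4 + 1) (by positivity) hc0 h1 h3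
    ((ht.dvd (by norm_num)).mul_left _) (fun h => ?_) (ht.not_dvd_pow _) (fun h => ?_)
  · exact ht.prime.one_lt.ne' (Nat.dvd_one.1 h)
  · rcases ht.prime.dvd_mul.1 h with h | h
    · exact ht.not_dvd_sub (by norm_num) h
    · rcases ht.prime.dvd_mul.1 h with h | h
      · exact ht.not_dvd_sub (by norm_num) h
      · exact not_dvd_add_odd ht rfl (by norm_num) 12 h

/-! ### top exponent `3 f` -/

/-- primes of order `3` modulo `Q = p ^ f₁` for `q = Q ^ 2` -/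
theorem exists_three {f₁ : ℕ} (hp : p.Prime) (hp2 : p ≠ 2) (hf₁ : 1 ≤ f₁)
    (hs : ∀ s, Prim (p ^ (2 * f₁)) 3 s → s ∣ c) : ∃ r, Prim (p ^ f₁) 3 r ∧ r ∣ c := by
  obtain ⟨r, hr⟩ := exists_prim (q := p) (e := f₁ * 3) hp.two_le (by omega) (by omega)
  have hr1 := prim_pow hf₁ hr
  have hr2 := Cfsg.Agent.H425.Chr.prim_quot (f := 2) (by norm_num) hr1
  rw [← pow_mul, mul_comm f₁ 2] at hr2
  exact ⟨r, hr1, hs r hr2⟩

/-- the survivors -/
def Out3 (p f : ℕ) (g : Grp) : Prop :=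
  g = .g2 (p ^ f) ∨ g = .psl 2 (p ^ (3 * f)) ∨ g = .psl 3 (p ^ f) ∨
    ∃ a, f = 2 * a ∧ (g = .g2 (p ^ a) ∨ g = .psl 2 (p ^ (3 * a)))

/-- **Top exponent `3 f`.** -/
theorem top3 {f₁ : ℕ} (hp : p.Prime) (hp2 : p ≠ 2) (hf : 1 ≤ f) (hg : Cond g) (hch : HasChar p g)
    (hc : den g * c = num g) (hdvd : c ∣ num (.g2 (p ^ f))) (hf₁ : 1 ≤ f₁) (hfl : fld g = p ^ f₁)
    (hK : KD p f₁ c (Xg g) (Yg g) (Mg g) (ag g)) (hfM : f₁ * Mg g = f * 3)
    (hs3 : ∀ s, Prim (p ^ f) 3 s → s ∣ c) : Out3 p f g := by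
  have hT := td_g2 hp hf hdvd
  have h2 : 2 * ag g ≤ 4 * Mg g := by
    have h2 := hT.pp hK.pp
    have h4 : f * (ag g * 3) ≤ f * (6 * Mg g) := by
      calc f * (ag g * 3) = (f * 3) * ag g := by ring
        _ = (f₁ * Mg g) * ag g := by rw [hfM]
        _ = (f₁ * ag g) * Mg g := by ring
        _ ≤ (f * 6) * Mg g := Nat.mul_le_mul_right _ h2
        _ = f * (6 * Mg g) := by ring
    have := Nat.le_of_mul_le_mul_left h4 (by omega)
    omega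
  -- the exponents of `g`
  have hE : ∀ e, Yg g e → 3 ≤ e → e ∣ 2 * Mg g := by
    intro e he h3
    have h3' : 1 * e ≤ f₁ * e := Nat.mul_le_mul_right _ hf₁
    obtain ⟨t, ht⟩ := exists_prim (q := p) (e := f₁ * e) hp.two_le (by omega) (by omega)
    obtain ⟨i, hi, hi2⟩ := hT.exp ht (hK.has he (by omega) ht)
    have hi' : i ∈ [2, 6] := hi
    simp only [List.mem_cons, List.not_mem_nil, or_false] at hi'
    have h6 : f₁ * e ∣ f * 6 := by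
      rcases hi' with rfl | rfl
      · exact hi2.trans ⟨3, by ring⟩
      · exact hi2
    rw [show f * 6 = f * 3 * 2 by ring, ← hfM, mul_assoc] at h6
    rw [mul_comm 2]
    exact Nat.dvd_of_mul_dvd_mul_left (by omega) h6
  have hodd : Odd (p ^ f₁) := (hp.odd_of_ne_two hp2).pow
  have hQ2 : 2 ≤ p ^ f₁ := hp.two_le.trans (Nat.le_self_pow (by omega) _)
  have hex : ∀ {f₁ : ℕ}, 1 ≤ f₁ → f = 2 * f₁ → ∃ r, Prim (p ^ f₁) 3 r ∧ r ∣ c := by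
    rintro f₁ h1 rfl
    exact exists_three hp hp2 h1 hs3
  cases g
  case psl m q =>
    obtain ⟨hm, -, -⟩ := hg
    have hb := bd_psl (ρ := 4) (by omega) h2
    obtain rfl : q = p ^ f₁ := hfl
    have hfM' : f₁ * m = f * 3 := hfM
    have hE' : ∀ e, (2 ≤ e ∧ e ≤ m) → 3 ≤ e → e ∣ 2 * m := hE
    have h5 : m = 2 ∨ m = 3 ∨ m = 4 ∨ m = 5 := by omega
    rcases h5 with rfl | rfl | rfl | rfl
    · right; right; right
      obtain ⟨a, rfl⟩ : ∃ a, f = 2 * a := ⟨f / 2, by omega⟩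
      obtain rfl : f₁ = 3 * a := by omega
      exact ⟨a, rfl, Or.inr rfl⟩
    · obtain rfl : f₁ = f := by omega
      exact Or.inr (Or.inr (Or.inl rfl))
    · exact absurd (hE' 3 ⟨by norm_num, by norm_num⟩ le_rfl) (by norm_num)
    · exact absurd (hE' 3 ⟨by norm_num, by norm_num⟩ le_rfl) (by norm_num)
  case psp m q =>
    exfalso
    obtain ⟨hm, -, -⟩ := hg
    have hb := bd_psp (ρ := 4) (by omega) h2
    obtain rfl : q = p ^ f₁ := hfl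
    have hfM' : f₁ * (2 * m) = f * 3 := hfM
    have hE' : ∀ e, (1 ≤ e ∧ e ≤ 2 * m ∧ 2 ∣ e) → 3 ≤ e → e ∣ 2 * (2 * m) := hE
    have h5 : m = 2 ∨ m = 3 ∨ m = 4 := by omega
    rcases h5 with rfl | rfl | rfl
    · obtain ⟨k, rfl⟩ : ∃ k, f = 4 * k := ⟨f / 4, by omega⟩
      obtain rfl : f₁ = 3 * k := by omega
      exact sp4_false hp hp2 (by omega) hc hdvd
    · obtain rfl : f = f₁ * 2 := by omega
      rw [pow_mul] at hdvd
      exact sp6_false hodd hQ2 (Nat.gcd_dvd_left _ _)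
        (hc : Nat.gcd 2 (p ^ f₁ - 1) * c = (p ^ f₁) ^ (3 ^ 2) * prB (p ^ f₁) 3) hdvd
    · exact absurd (hE' 6 ⟨by norm_num, by norm_num, by norm_num⟩ (by norm_num)) (by norm_num)
  case psu m q =>
    exfalso
    obtain ⟨hm, -, -⟩ := hg
    have hb := bd_psu (ρ := 4) hm h2
    obtain rfl : q = p ^ f₁ := hfl
    have hfM' : f₁ * (2 * (if m % 2 = 0 then m - 1 else m)) = f * 3 := hfM
    have hE' : ∀ e, (3 ≤ e ∧ ((e ≤ m ∧ e % 2 = 0) ∨ ∃ j, e = 2 * j ∧ j ≤ m ∧ j % 2 = 1)) → 3 ≤ e →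
      e ∣ 2 * (2 * (if m % 2 = 0 then m - 1 else m)) := hE
    have h6 : ∀ m, 3 ≤ m → 3 ≤ 6 ∧ ((6 ≤ m ∧ 6 % 2 = 0) ∨ ∃ j, 6 = 2 * j ∧ j ≤ m ∧ j % 2 = 1) :=
      fun m hm => ⟨by norm_num, Or.inr ⟨3, rfl, hm, rfl⟩⟩
    have h5 : m = 3 ∨ m = 4 ∨ m = 5 ∨ m = 6 ∨ m = 7 ∨ m = 8 ∨ m = 9 := by omega
    rcases h5 with rfl | rfl | rfl | rfl | rfl | rfl | rfl
    · norm_num only [if_false] at hfM'
      obtain ⟨r, hr, hrc⟩ := hex hf₁ (by omega)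
      refine not_dvd_u (e := 3) hr rfl (by norm_num) (n := 3) (by norm_num) (3 * (3 - 1) / 2) ?_
      exact (hrc.mul_left _).trans (dvd_of_eq hc)
    · norm_num only [if_true] at hfM'
      obtain ⟨r, hr, hrc⟩ := hex hf₁ (by omega)
      refine not_dvd_u (e := 3) hr rfl (by norm_num) (n := 4) (by norm_num) (4 * (4 - 1) / 2) ?_
      exact (hrc.mul_left _).trans (dvd_of_eq hc)
    · exact absurd (hE' 6 (h6 _ (by norm_num)) (by norm_num)) (by norm_num)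
    · exact absurd (hE' 6 (h6 _ (by norm_num)) (by norm_num)) (by norm_num)
    · exact absurd (hE' 6 (h6 _ (by norm_num)) (by norm_num)) (by norm_num)
    · exact absurd (hE' 6 (h6 _ (by norm_num)) (by norm_num)) (by norm_num)
    · exact absurd (hE' 8 ⟨by norm_num, Or.inl ⟨by norm_num, by norm_num⟩⟩ (by norm_num)) (by norm_num)
  case oodd m q =>
    exfalso
    obtain ⟨hm, -, -⟩ := hg
    have hb := bd_psp (ρ := 4) (by omega) h2
    obtain rfl : q = p ^ f₁ := hfl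
    have hfM' : f₁ * (2 * m) = f * 3 := hfM
    have hE' : ∀ e, (1 ≤ e ∧ e ≤ 2 * m ∧ 2 ∣ e) → 3 ≤ e → e ∣ 2 * (2 * m) := hE
    have h5 : m = 3 ∨ m = 4 := by omega
    rcases h5 with rfl | rfl
    · obtain rfl : f = f₁ * 2 := by omega
      rw [pow_mul] at hdvd
      exact sp6_false hodd hQ2 dvd_rfl (hc : 2 * c = (p ^ f₁) ^ (3 ^ 2) * prB (p ^ f₁) 3) hdvd
    · exact absurd (hE' 6 ⟨by norm_num, by norm_num, by norm_num⟩ (by norm_num)) (by norm_num)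
  case oplus m q =>
    exfalso
    obtain ⟨hm, -⟩ := hg
    have hb := bd_oplus (ρ := 4) (by omega) h2
    obtain rfl : q = p ^ f₁ := hfl
    obtain rfl : m = 4 := by omega
    have hfM' : f₁ * (2 * (4 - 1)) = f * 3 := hfM
    obtain rfl : f = f₁ * 2 := by omega
    rw [pow_mul] at hdvd
    exact o8_false hodd hQ2 (Nat.gcd_dvd_left _ _) (hc : Nat.gcd 4 ((p ^ f₁) ^ 4 - 1) * c =
      (p ^ f₁) ^ (4 * (4 - 1)) * (((p ^ f₁) ^ 4 - 1) * prB (p ^ f₁) (4 - 1))) hdvd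
  case ominus m q =>
    exfalso
    obtain ⟨hm, -⟩ := hg
    have hb := bd_ominus (ρ := 4) (by omega) h2
    have hE' : ∀ e, (4 ≤ e ∧ e ≤ 2 * m ∧ 2 ∣ e) → 3 ≤ e → e ∣ 2 * (2 * m) := hE
    have h5 : m = 4 ∨ m = 5 := by omega
    rcases h5 with rfl | rfl
    · exact absurd (hE' 6 ⟨by norm_num, by norm_num, by norm_num⟩ (by norm_num)) (by norm_num)
    · exact absurd (hE' 6 ⟨by norm_num, by norm_num, by norm_num⟩ (by norm_num)) (by norm_num)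
  case g2 q =>
    obtain rfl : q = p ^ f₁ := hfl
    have hfM' : f₁ * 6 = f * 3 := hfM
    exact Or.inr (Or.inr (Or.inr ⟨f₁, by omega, Or.inl rfl⟩))
  case f4 q =>
    exfalso
    obtain rfl : q = p ^ f₁ := hfl
    have hfM' : f₁ * 12 = f * 3 := hfM
    obtain rfl : f = f₁ * 4 := by omega
    rw [pow_mul] at hdvd
    exact f4_false hodd hQ2 hc hdvd
  case e6 q =>
    have h : 2 * 36 ≤ 4 * 12 := h2
    omega
  case e7 q =>
    have h : 2 * 63 ≤ 4 * 18 := h2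
    omega
  case e8 q =>
    have h : 2 * 120 ≤ 4 * 30 := h2
    omega
  case te6 q =>
    have hE' : ∀ e, e ∈ [2, 3, 4, 6, 8, 10, 12, 18] → 3 ≤ e → e ∣ 2 * 18 := hE
    exact absurd (hE' 8 (by decide) (by norm_num)) (by norm_num)
  case td4 q =>
    exfalso
    obtain rfl : q = p ^ f₁ := hfl
    have hfM' : f₁ * 12 = f * 3 := hfM
    obtain rfl : f = f₁ * 4 := by omega
    rw [pow_mul] at hdvd
    have h3 : 3 ≤ p ^ f₁ := by
      obtain ⟨k, hk⟩ := hodd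
      omega
    exact td4_false' h3 hc hdvd
  case tf4 q =>
    exfalso
    obtain rfl : q = p ^ f₁ := hfl
    obtain ⟨m, hm, hqm⟩ : ∃ m, 1 ≤ m ∧ p ^ f₁ = 2 ^ (2 * m + 1) := hg
    exact ne_two_pow hp hp2 hf₁ hqm
  case sz q =>
    exfalso
    obtain rfl : q = p ^ f₁ := hfl
    obtain ⟨m, hm, hqm⟩ : ∃ m, 1 ≤ m ∧ p ^ f₁ = 2 ^ (2 * m + 1) := hg
    exact ne_two_pow hp hp2 hf₁ hqm
  case ree q =>
    exfalso
    obtain rfl : q = p ^ f₁ := hfl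
    have hfM' : f₁ * 6 = f * 3 := hfM
    obtain ⟨r, hr, hrc⟩ := hex hf₁ (by omega)
    have h7 : 1 * c = (p ^ f₁) ^ 3 * ((p ^ f₁ - 1) * ((p ^ f₁) ^ 3 + 1)) := hc
    rw [one_mul] at h7
    rw [h7] at hrc
    rcases hr.prime.dvd_mul.1 hrc with h9 | h9
    · exact hr.not_dvd_pow _ h9
    · rcases hr.prime.dvd_mul.1 h9 with h9 | h9
      · exact hr.not_dvd_qsub le_rfl h9
      · exact not_dvd_add_odd hr rfl (by norm_num) 3 h9
  all_goals exact absurd hch not_false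

/-- **Class 3.** -/
theorem three (hp : p.Prime) (hp2 : p ≠ 2) (hf : 1 ≤ f) (hg : Cond g) (hch : HasChar p g)
    (hc : den g * c = num g) (hdvd : c ∣ num (.g2 (p ^ f))) (hs3 : ∀ s, Prim (p ^ f) 3 s → s ∣ c) :
    Out3 p f g := by
  obtain ⟨f₁, hf₁, hfl, hK, hY⟩ := kd_all hp hg hch hc
  have hT := td_g2 hp hf hdvd
  obtain ⟨h1, h2⟩ := top_le hp hp2 hf (Or.inl rfl) hT hf₁ hK hY hs3
  obtain ⟨k, hk⟩ := h2
  have hk2 : k < 3 := by
    by_contra h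
    have h3 : f₁ * Mg g * 3 ≤ f₁ * Mg g * k := Nat.mul_le_mul_left _ (by omega)
    omega
  interval_cases k
  · omega
  · -- top exponent `6 f`
    have hfM : f₁ * Mg g = f * 6 := by omega
    rcases top6 hp hp2 hf hg hch hc hdvd hf₁ hfl hK hfM with rfl | rfl | rfl | rfl
    · exact Or.inl rfl
    · exact Or.inr (Or.inl rfl)
    · exfalso
      obtain ⟨r, hr⟩ := exists_prim (q := p) (e := f * 3) hp.two_le (by omega) (by omega)
      have hr1 := prim_pow hf hr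
      refine not_dvd_u (e := 3) hr1 rfl (by norm_num) (n := 3) (by norm_num) (3 * (3 - 1) / 2) ?_
      exact ((hs3 r hr1).mul_left _).trans (dvd_of_eq hc)
    · exfalso
      obtain ⟨r, hr⟩ := exists_prim (q := p) (e := f * 3) hp.two_le (by omega) (by omega)
      have hr1 := prim_pow hf hr
      have h6 := hs3 r hr1
      have h7 : 1 * c = (p ^ f) ^ 3 * ((p ^ f - 1) * ((p ^ f) ^ 3 + 1)) := hc
      rw [one_mul] at h7
      rw [h7] at h6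
      rcases hr.prime.dvd_mul.1 h6 with h9 | h9
      · exact hr1.not_dvd_pow _ h9
      · rcases hr.prime.dvd_mul.1 h9 with h9 | h9
        · exact hr1.not_dvd_qsub le_rfl h9
        · exact not_dvd_add_odd hr1 rfl (by norm_num) 3 h9
  · exact top3 hp hp2 hf hg hch hc hdvd hf₁ hfl hK (by omega) hs3

end Cfsg.Agent.H395.GCov
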